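import Cfsg.Agent.H356.AQ.Quot

/-!
# Coordinates node by node (S4884; helper553)

* `NodeC T X i E` : a surjection `X (sr i) → E`, `T` acts by scalars, every scalar is induced by an element of `T` centralising
  the other simple root groups;
* `adjOf` : the coordinates `Adj T X F` of helper148 from one `NodeC` for each node;
* `center_le` : an element of `G` centralising all root groups lies in `T`.
-/

set_option autoImplicit false
set_option linter.unusedSectionVars false

namespace Cfsg.Agent.H553.AF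

open CoxeterSystem Cfsg.Agent.ChevalleyStructure.CoxeterGeom Cfsg.Agent.Tits.Roots Cfsg.Agent.Tits.Core
  Cfsg.Agent.Nodes.Comb Cfsg.Agent.Nodes.Reps Cfsg.Agent.Nodes.BNOf Cfsg.Agent.Nodes.RGDLib
  Cfsg.Agent.Nodes.Bruhat Cfsg.Agent.Nodes.OppDec Cfsg.Agent.Nodes.StabComb Cfsg.Agent.H148.GG

section

variable {I Y : Type*} [DecidableEq I] [Group Y]

/-- coordinates on one simple root group -/
structure NodeC (T : Subgroup Y) (X : (I → ℤ) → Subgroup Y) (i : I) (E : Type*) [Field E] where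
  x : ↥(X (sr i)) →* Multiplicative E
  a : ↥T →* Eˣ
  surjX : Function.Surjective x
  act : ∀ (t : ↥T) (u : ↥(X (sr i))) (hu : (t : Y) * (u : Y) * (t : Y)⁻¹ ∈ X (sr i)),
    Multiplicative.toAdd (x ⟨(t : Y) * (u : Y) * (t : Y)⁻¹, hu⟩) = (a t : E) * Multiplicative.toAdd (x u)
  lin : ∀ (ψ : ↥(X (sr i)) →* ℂˣ) (u : ↥(X (sr i))), x u = 1 → ψ u = 1
  ker : ∀ t : ↥T, a t = 1 → ∀ u ∈ X (sr i), (t : Y) * u = u * (t : Y)
  ful : ∀ c : Eˣ, ∃ t : ↥T, a t = c ∧ ∀ j, j ≠ i → ∀ u ∈ X (sr j), (t : Y) * u = u * (t : Y)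

variable {T : Subgroup Y} {X : (I → ℤ) → Subgroup Y}

theorem NodeC.a_one {i : I} {E : Type*} [Field E] (N : NodeC T X i E) {t : ↥T}
    (ht : ∀ u ∈ X (sr i), (t : Y) * u = u * (t : Y)) : N.a t = 1 := by
  obtain ⟨v, hv⟩ := N.surjX (Multiplicative.ofAdd (1 : E))
  have h1 : (t : Y) * v * (t : Y)⁻¹ = v := by rw [ht v v.2, mul_inv_cancel_right]
  have h2 := N.act t v (by rw [h1]; exact v.2)
  have h3 : (⟨(t : Y) * (v : Y) * (t : Y)⁻¹, by rw [h1]; exact v.2⟩ : ↥(X (sr i))) = v := Subtype.ext h1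
  rw [h3, hv] at h2
  apply Units.ext
  have h4 : (1 : E) = (N.a t : E) * 1 := h2
  rw [Units.val_one, h4, mul_one]

/-- **the coordinates** -/
def adjOf [Fintype I] (hc : ∀ s ∈ T, ∀ t ∈ T, Commute s t) {F : I → Type*} [∀ i, Field (F i)]
    (N : ∀ i, NodeC T X i (F i)) : Adj T X F where
  x i := (N i).x
  a i := (N i).a
  surjX i := (N i).surjX
  act i := (N i).act
  lin i := (N i).lin
  surjT c := by
    classical
    choose t ht hj using fun i => (N i).ful (c i)
    have hcom : ∀ s s' : ↥T, s * s' = s' * s := fun s s' => Subtype.ext (hc s s.2 s' s'.2)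
    have key : ∀ S : Finset I, ∃ s : ↥T, ∀ i, (N i).a s = if i ∈ S then c i else 1 := by
      intro S
      induction S using Finset.induction_on with
      | empty => exact ⟨1, fun i => by rw [map_one]; simp⟩
      | insert j S hjS ih =>
        obtain ⟨s, hs⟩ := ih
        refine ⟨t j * s, fun i => ?_⟩
        rw [map_mul, hs]
        by_cases hij : i = j
        · subst hij
          rw [ht, if_neg hjS, mul_one, if_pos (Finset.mem_insert_self _ _)]
        · rw [(N i).a_one (hj j i hij), one_mul]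
          by_cases hiS : i ∈ S
          · rw [if_pos hiS, if_pos (Finset.mem_insert_of_mem hiS)]
          · rw [if_neg hiS, if_neg (fun h => by
              rcases Finset.mem_insert.1 h with h | h
              · exact hij h
              · exact hiS h)]
    obtain ⟨s, hs⟩ := key Finset.univ
    exact ⟨s, fun i => by rw [hs, if_pos (Finset.mem_univ i)]⟩
  ker i := (N i).ker

end

section Center

variable {I W Y : Type*} [Fintype I] [DecidableEq I] [Group W] [Group Y] {M : CoxeterMatrix I}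
  {cs : CoxeterSystem M W} {A : I → I → ℤ} {h : IsCartan M A} {p : ℕ} {T : Subgroup Y} {n : I → Y}
  {X : (I → ℤ) → Subgroup Y} (R : RGD cs h p T n X)

include R

/-- every `w` has a representative in the group generated by the root groups -/
theorem exists_rp_Sup [Finite W] (w : W) : ∃ k ∈ RGD.Sup X {x | IsRoot cs h x}, Rp cs R.nsys w k := by
  obtain ⟨ω, rfl⟩ := cs.wordProd_surjective w
  induction ω with
  | nil => exact ⟨1, one_mem _, by rw [wordProd_nil]; exact rp_one⟩
  | cons i ω ih =>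
    obtain ⟨g, hg, hr⟩ := ih
    obtain ⟨u, hu, hu1⟩ := exists_ne_one R i
    have h1 : n i * u * (n i)⁻¹ ∈ X (-sr i) := by
      have := R.conj_mem (rp_simple cs R.nsys i) (isRoot_sr cs h i) hu
      rwa [rep_simple_sr] at this
    have h2 : n i * u * (n i)⁻¹ ≠ 1 := by
      intro h3
      exact hu1 (mul_eq_left.1 (mul_inv_eq_one.1 h3))
    obtain ⟨a, ha, s, hs, b, hb, e⟩ := R.rk1 i _ h1 h2
    have h3 : s * n i = a⁻¹ * (n i * u * (n i)⁻¹) * b⁻¹ := by
      rw [e]; group
    have hX : ∀ x, IsRoot cs h x → X x ≤ RGD.Sup X {x | IsRoot cs h x} := fun x hx =>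
      RGD.le_Sup (S := {x | IsRoot cs h x}) hx
    have h4 : s * n i ∈ RGD.Sup X {x | IsRoot cs h x} := by
      rw [h3]
      exact mul_mem (mul_mem (inv_mem (hX _ (isRoot_sr cs h i) ha)) (hX _ (isRoot_sr cs h i).neg h1))
        (inv_mem (hX _ (isRoot_sr cs h i) hb))
    refine ⟨s * n i * g, mul_mem h4 hg, ?_⟩
    rw [wordProd_cons]
    have h5 := ((rp_of_mem (cs := cs) (hN := R.nsys) hs).mul (rp_simple cs R.nsys i))
    rw [one_mul] at h5
    exact h5.mul hr

/-- **an element centralising all root groups lies in `T`** -/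
theorem center_le [Finite W] {z : Y} (hz : z ∈ GG cs h T X)
    (hc : ∀ a, IsRoot cs h a → ∀ x ∈ X a, z * x = x * z) : z ∈ T := by
  have hcS : ∀ x ∈ RGD.Sup X {x | IsRoot cs h x}, z * x = x * z := by
    intro x hx
    have h1 : RGD.Sup X {x | IsRoot cs h x} ≤ Subgroup.centralizer {z} :=
      RGD.Sup_le fun a ha y hy => by
        rw [Subgroup.mem_centralizer_singleton_iff]
        exact (hc a ha y hy).symm
    exact (Subgroup.mem_centralizer_singleton_iff.1 (h1 hx)).symm
  have hU : RGD.Sup X (RGD.Pos cs h) ≤ RGD.Sup X {x | IsRoot cs h x} := RGD.Sup_mono fun x hx => hx.1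
  -- `z ∈ B`
  have hB : z ∈ RGD.B cs h T X := by
    obtain ⟨w, b₁, hb₁, k, hk, b₂, hb₂, e⟩ := (mem_GG R).1 hz
    by_cases hw : w = 1
    · subst hw
      rw [e]
      exact mul_mem (mul_mem hb₁ (RGD.T_le_B hk.mem_of_one)) hb₂
    exfalso
    obtain ⟨i, hi⟩ := cs.exists_rightDescent_of_ne_one hw
    have hneg : rep cs h w (sr i) ≤ 0 := nonpos_of_lt cs h w i hi
    obtain ⟨u, hu, hu1⟩ := exists_ne_one R i
    have huU : u ∈ RGD.Sup X (RGD.Pos cs h) := RGD.le_Sup (S := RGD.Pos cs h) ⟨isRoot_sr cs h i, sr_nonneg i⟩ hu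
    have hv : b₂⁻¹ * u * b₂ ∈ RGD.Sup X (RGD.Pos cs h) := by
      have := (Subgroup.mem_normalizer_iff.1 (R.B_le_normalizer_U (inv_mem hb₂)) u).1 huU
      rwa [inv_inv] at this
    have h1 := hcS _ (hU hv)
    have h2 : k * u * k⁻¹ = b₁⁻¹ * (b₂⁻¹ * u * b₂) * b₁ := by
      have h3 : z * (b₂⁻¹ * u * b₂) * z⁻¹ = b₂⁻¹ * u * b₂ := by rw [h1, mul_inv_cancel_right]
      rw [← h3, e]; group
    have h3 : k * u * k⁻¹ ∈ RGD.B cs h T X := by
      rw [h2]
      exact mul_mem (mul_mem (inv_mem hb₁) (RGD.U_le_B hv)) hb₁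
    have h4 : k * u * k⁻¹ ∈ UN cs h X :=
      X_le_UN ((isRoot_sr cs h i).act w) hneg (R.conj_mem hk (isRoot_sr cs h i) hu)
    have h5 := eq_one_of_mem_UN_of_mem_B R h4 h3
    exact hu1 (mul_eq_left.1 (mul_inv_eq_one.1 h5))
  obtain ⟨k, hkS, hk⟩ := exists_rp_Sup R (w0 cs)
  have h1 : z ∈ BN cs h T X := by
    rw [← cj_B R hk, mem_cj]
    have : k⁻¹ * z * k = z := by
      rw [mul_assoc, hcS k hkS, ← mul_assoc, inv_mul_cancel, one_mul]
    rwa [this]
  have h2 : z ∈ ((T ⊔ UN cs h X : Subgroup Y) : Set Y) := h1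
  have hTN : T ≤ Subgroup.normalizer (UN cs h X : Set Y) := R.T_le_normalizer (S := Neg cs h) fun x hx => hx.1
  rw [Subgroup.coe_mul_of_left_le_normalizer_right _ _ hTN, Set.mem_mul] at h2
  obtain ⟨t, ht, v, hv, e⟩ := h2
  have h3 : v ∈ RGD.B cs h T X := by
    have : v = t⁻¹ * z := by rw [← e]; group
    rw [this]
    exact mul_mem (inv_mem (RGD.T_le_B ht)) hB
  have h4 := eq_one_of_mem_UN_of_mem_B R hv h3
  rw [← e, h4, mul_one]
  exact ht

end Center

end Cfsg.Agent.H553.AF
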