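import Cfsg.Agent.H928.Ad.Grp
import Cfsg.Agent.H148.GG.Adj

/-!
# From `H928.Ad.Adj` to `H148.GG.Adj` (S4829; helper553)
-/

set_option autoImplicit false
set_option linter.unusedSectionVars false

namespace Cfsg.Agent.H553.AF.ToAdj

open CoxeterSystem Cfsg.Agent.ChevalleyStructure.CoxeterGeom Cfsg.Agent.Tits.Roots Cfsg.Agent.Tits.Core
  Cfsg.Agent.Tits.RootComb Cfsg.Agent.Nodes.Comb Cfsg.Agent.Nodes.Reps Cfsg.Agent.Nodes.BNOf Cfsg.Agent.Nodes.RGDLib
  Cfsg.Agent.H928.Ad

universe v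

variable {I W : Type*} [Fintype I] [DecidableEq I] [Group W] {Y : Type*} [Group Y] {M : CoxeterMatrix I}
  {cs : CoxeterSystem M W} {A : I → I → ℤ} {h : IsCartan M A} {p : ℕ} {T : Subgroup Y} {n : I → Y}
  {X : (I → ℤ) → Subgroup Y} {K : (I → ℤ) → Type v} [∀ z, Field (K z)] {x : ∀ z, K z → Y}
  (H : Adj cs h p T n X x)

include H

theorem ex (i : I) (u : ↥(X (sr i))) : ∃ a : K (sr i), x (sr i) a = u :=
  (H.sys.mem _ (isRoot_sr cs h i) _).1 u.2

/-- the coordinate -/
noncomputable def co (i : I) : ↥(X (sr i)) →* Multiplicative (K (sr i)) where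
  toFun u := Multiplicative.ofAdd (ex H i u).choose
  map_one' := by
    have hz := isRoot_sr cs h i
    have h1 := (ex H i 1).choose_spec
    have h2 : (ex H i 1).choose = 0 := H.sys.inj _ hz (h1.trans (H.sys.zero hz).symm)
    rw [h2]
    rfl
  map_mul' u v := by
    have hz := isRoot_sr cs h i
    have h1 := (ex H i (u * v)).choose_spec
    have h2 : (ex H i (u * v)).choose = (ex H i u).choose + (ex H i v).choose := by
      apply H.sys.inj _ hz
      rw [h1, H.sys.add _ hz, (ex H i u).choose_spec, (ex H i v).choose_spec]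
      rfl
    rw [h2]
    rfl

theorem co_spec (i : I) (u : ↥(X (sr i))) : x (sr i) (Multiplicative.toAdd (co H i u)) = u := (ex H i u).choose_spec

theorem co_eq (i : I) (u : ↥(X (sr i))) {a : K (sr i)} (e : x (sr i) a = u) : Multiplicative.toAdd (co H i u) = a :=
  H.sys.inj _ (isRoot_sr cs h i) ((co_spec H i u).trans e.symm)

theorem co_inj (i : I) : Function.Injective (co H i) := by
  intro u v e
  apply Subtype.ext
  rw [← co_spec H i u, ← co_spec H i v, e]

/-- the scalar -/
noncomputable def al (i : I) : ↥T →* (K (sr i))ˣ where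
  toFun t := Units.mk0 _ (H.sys.tor _ (isRoot_sr cs h i) t t.2).choose_spec.1
  map_one' := by
    have hz := isRoot_sr cs h i
    apply Units.ext
    have h1 := (H.sys.tor _ hz (1 : ↥T) (1 : ↥T).2).choose_spec.2 1
    rw [Units.val_mk0, Units.val_one]
    apply H.sys.inj _ hz
    rw [mul_one] at h1
    rw [← h1]
    simp
  map_mul' s t := by
    have hz := isRoot_sr cs h i
    apply Units.ext
    have h1 := (H.sys.tor _ hz (s * t : ↥T) (s * t : ↥T).2).choose_spec.2 1
    have h2 := (H.sys.tor _ hz s s.2).choose_spec.2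
    have h3 := (H.sys.tor _ hz t t.2).choose_spec.2
    rw [Units.val_mul, Units.val_mk0, Units.val_mk0, Units.val_mk0]
    apply H.sys.inj _ hz
    rw [mul_one] at h1
    have h4 : ((s * t : ↥T) : Y) * x (sr i) 1 * ((s * t : ↥T) : Y)⁻¹ = (s : Y) * ((t : Y) * x (sr i) 1 * (t : Y)⁻¹) * (s : Y)⁻¹ := by
      rw [Subgroup.coe_mul]; group
    rw [← h1, h4, h3, h2, mul_one]

theorem al_spec (i : I) (t : ↥T) (a : K (sr i)) : (t : Y) * x (sr i) a * (t : Y)⁻¹ = x (sr i) ((al H i t : K (sr i)) * a) :=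
  (H.sys.tor _ (isRoot_sr cs h i) t t.2).choose_spec.2 a

theorem al_eq (i : I) (t : ↥T) {c : K (sr i)} (e : ∀ a, (t : Y) * x (sr i) a * (t : Y)⁻¹ = x (sr i) (c * a)) :
    (al H i t : K (sr i)) = c := by
  apply H.sys.inj _ (isRoot_sr cs h i)
  have h1 := al_spec H i t 1
  rw [e 1, mul_one, mul_one] at h1
  exact h1.symm

/-- **the coordinates of the simple root groups** -/
noncomputable def adj : Cfsg.Agent.H148.GG.Adj T X (fun i => K (sr i)) where
  x := co H
  a := al H
  surjX i s := by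
    refine ⟨⟨x (sr i) (Multiplicative.toAdd s), (H.sys.mem _ (isRoot_sr cs h i) _).2 ⟨_, rfl⟩⟩, ?_⟩
    exact congrArg Multiplicative.ofAdd (co_eq H i _ rfl)
  act i t u hu := by
    refine co_eq H i _ ((al_spec H i t _).symm.trans ?_)
    rw [co_spec H i u]
  lin i ψ u e := by
    have h1 : u = 1 := co_inj H i (e.trans (map_one _).symm)
    rw [h1, map_one]
  surjT c := by
    obtain ⟨t, ht, e⟩ := H.full (fun i => (c i : K (sr i))) (fun i => (c i).ne_zero)
    exact ⟨⟨t, ht⟩, fun i => Units.ext (al_eq H i ⟨t, ht⟩ (e i))⟩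
  ker i t e u hu := by
    obtain ⟨a, rfl⟩ := (H.sys.mem _ (isRoot_sr cs h i) _).1 hu
    have h1 := al_spec H i t a
    rw [e, Units.val_one, one_mul] at h1
    exact mul_inv_eq_iff_eq_mul.1 h1

theorem adj_inj (i : I) : Function.Injective ((adj H).x i) := co_inj H i

end Cfsg.Agent.H553.AF.ToAdj
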